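/-
Alternating sums over chains of a finite bounded-below order.
-/
import Mathlib

set_option autoImplicit false

namespace Cfsg.Agent.H42.StValues

open Finset

variable {α : Type*} [PartialOrder α] [OrderBot α] [Fintype α]

open scoped Classical in
/-- The chains strictly between the bottom and `u`. -/
noncomputable def chains (u : α) : Finset (Finset α) :=
  univ.filter fun C => (∀ x ∈ C, ⊥ < x ∧ x < u) ∧ IsChain (· ≤ ·) (C : Set α)

theorem mem_chains {u : α} {C : Finset α} :
    C ∈ chains u ↔ (∀ x ∈ C, ⊥ < x ∧ x < u) ∧ IsChain (· ≤ ·) (C : Set α) := by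
  classical
  simp [chains]

/-- The alternating number of chains strictly between the bottom and `u`. -/
noncomputable def chainSum (u : α) : ℤ := ∑ C ∈ chains u, (-1) ^ C.card

theorem exists_greatest_of_chain {C : Finset α} (hne : C.Nonempty) (hC : IsChain (· ≤ ·) (C : Set α)) :
    ∃ m ∈ C, ∀ x ∈ C, x ≤ m := by
  obtain ⟨m, hm⟩ := C.exists_maximal hne
  refine ⟨m, hm.1, fun x hx => ?_⟩
  rcases hC.total hx hm.1 with h | h
  · exact h
  · exact hm.2 hx h

theorem chainSum_eq (u : α) [DecidablePred fun x : α => ⊥ < x ∧ x < u] :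
    chainSum u = 1 - ∑ x ∈ univ.filter (fun x => ⊥ < x ∧ x < u), chainSum x := by
  classical
  have h0 : (∅ : Finset α) ∈ chains u := by simp [mem_chains]
  rw [chainSum, ← Finset.add_sum_erase _ _ h0, Finset.card_empty, pow_zero, sub_eq_add_neg]
  congr 1
  rw [← Finset.sum_neg_distrib]
  simp only [chainSum, ← Finset.sum_neg_distrib]
  rw [Finset.sum_sigma']
  symm
  refine Finset.sum_bij (fun z _ => insert z.1 z.2) ?_ ?_ ?_ ?_
  · rintro ⟨x, C⟩ h
    simp only [Finset.mem_sigma, Finset.mem_filter, Finset.mem_univ, true_and, mem_chains] at h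
    obtain ⟨⟨hx1, hx2⟩, hC1, hC2⟩ := h
    rw [Finset.mem_erase, mem_chains]
    refine ⟨(Finset.insert_nonempty _ _).ne_empty, fun y hy => ?_, ?_⟩
    · rcases Finset.mem_insert.1 hy with rfl | hy
      · exact ⟨hx1, hx2⟩
      · exact ⟨(hC1 y hy).1, (hC1 y hy).2.trans hx2⟩
    · rw [Finset.coe_insert]
      exact hC2.insert fun y hy _ => Or.inr (hC1 y hy).2.le
  · rintro ⟨x, C⟩ h ⟨y, D⟩ h' e
    simp only [Finset.mem_sigma, Finset.mem_filter, Finset.mem_univ, true_and, mem_chains] at h h'
    obtain ⟨-, hC1, -⟩ := h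
    obtain ⟨-, hD1, -⟩ := h'
    have hxy : x = y := by
      have h1 : x ∈ insert y D := e ▸ Finset.mem_insert_self x C
      have h2 : y ∈ insert x C := e.symm ▸ Finset.mem_insert_self y D
      rcases Finset.mem_insert.1 h1 with h1 | h1
      · exact h1
      · rcases Finset.mem_insert.1 h2 with h2 | h2
        · exact h2.symm
        · exact absurd ((hD1 x h1).2.trans (hC1 y h2).2) (lt_irrefl x)
    subst hxy
    have hC : x ∉ C := fun hm => lt_irrefl x (hC1 x hm).2
    have hD : x ∉ D := fun hm => lt_irrefl x (hD1 x hm).2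
    have := congrArg (fun S : Finset α => S.erase x) e
    simp only [Finset.erase_insert hC, Finset.erase_insert hD] at this
    subst this; rfl
  · intro S hS
    rw [Finset.mem_erase, mem_chains] at hS
    obtain ⟨hne, hS1, hS2⟩ := hS
    obtain ⟨m, hm, hmax⟩ := exists_greatest_of_chain (Finset.nonempty_iff_ne_empty.2 hne) hS2
    refine ⟨⟨m, S.erase m⟩, ?_, Finset.insert_erase hm⟩
    simp only [Finset.mem_sigma, Finset.mem_filter, Finset.mem_univ, true_and, mem_chains]
    exact ⟨hS1 m hm, fun x hx => ⟨(hS1 x (Finset.mem_of_mem_erase hx)).1,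
      lt_of_le_of_ne (hmax x (Finset.mem_of_mem_erase hx)) (Finset.ne_of_mem_erase hx)⟩,
      hS2.mono (Finset.coe_subset.2 (Finset.erase_subset _ _))⟩
  · rintro ⟨x, C⟩ h
    simp only [Finset.mem_sigma, Finset.mem_filter, Finset.mem_univ, true_and, mem_chains] at h
    rw [Finset.card_insert_of_notMem fun hm => lt_irrefl x (h.2.1 x hm).2, pow_succ]
    ring

/-- A function summing to zero on every non-trivial lower interval computes the alternating chain count. -/
theorem chainSum_eq_neg (g : α → ℤ) (h0 : g ⊥ = 1)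
    (hsum : ∀ u : α, u ≠ ⊥ → ∀ [DecidablePred fun x => x ≤ u], ∑ x ∈ univ.filter (fun x => x ≤ u), g x = 0)
    (u : α) (hu : u ≠ ⊥) : chainSum u = -g u := by
  classical
  induction u using WellFoundedLT.induction with
  | ind u ih =>
    have h := hsum u hu
    have hs : univ.filter (fun x => x ≤ u) = insert u (insert ⊥ (univ.filter fun x => ⊥ < x ∧ x < u)) := by
      ext x
      simp only [Finset.mem_filter, Finset.mem_univ, true_and, Finset.mem_insert]
      refine ⟨fun hx => ?_, ?_⟩
      · rcases eq_or_ne x u with rfl | hxu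
        · exact Or.inl rfl
        · rcases eq_or_ne x ⊥ with rfl | hxb
          · exact Or.inr (Or.inl rfl)
          · exact Or.inr (Or.inr ⟨bot_lt_iff_ne_bot.2 hxb, lt_of_le_of_ne hx hxu⟩)
      · rintro (rfl | rfl | hx)
        · exact le_rfl
        · exact bot_le
        · exact hx.2.le
    rw [hs, Finset.sum_insert (by simp [hu]), Finset.sum_insert (by simp), h0] at h
    rw [chainSum_eq, Finset.sum_congr rfl fun x hx => ih x (Finset.mem_filter.1 hx).2.2
      (Finset.mem_filter.1 hx).2.1.ne', Finset.sum_neg_distrib]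
    linarith

end Cfsg.Agent.H42.StValues
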