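/-
Counting in finite semisimple modules over a polynomial ring over a finite field, and the Moebius
function of their submodule lattices.
-/
import Cfsg.Agent.H42.StValues.Chain

set_option autoImplicit false

open Polynomial Submodule

namespace Cfsg.Agent.H42.StValues

variable {F : Type*} [Field F] {M : Type*} [AddCommGroup M] [Module F[X] M] [Module F M]
  [IsScalarTower F F[X] M]

/-- The kernel of multiplication by `f`. -/
noncomputable abbrev kerBy (f : F[X]) : Submodule F[X] M := Submodule.torsionBy F[X] M f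

theorem mem_kerBy {f : F[X]} {v : M} : v ∈ kerBy (M := M) f ↔ f • v = 0 := Submodule.mem_torsionBy_iff _ _

/-- The product of disjoint submodules is their sum. -/
noncomputable def supEquiv {A B : Submodule F[X] M} (h : A ⊓ B = ⊥) : (A × B) ≃ₗ[F[X]] ↥(A ⊔ B) :=
  LinearEquiv.ofBijective
    ((Submodule.inclusion le_sup_left).coprod (Submodule.inclusion le_sup_right)) (by
    constructor
    · rw [← LinearMap.ker_eq_bot, LinearMap.ker_eq_bot']
      rintro ⟨⟨a, ha⟩, ⟨b, hb⟩⟩ e
      have e' : a + b = 0 := congrArg Subtype.val e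
      have : a ∈ A ⊓ B := ⟨ha, by rw [eq_neg_of_add_eq_zero_left e']; exact B.neg_mem hb⟩
      rw [h, Submodule.mem_bot] at this
      subst this
      simp only [zero_add] at e'
      subst e'
      rfl
    · rintro ⟨x, hx⟩
      obtain ⟨a, ha, b, hb, rfl⟩ := Submodule.mem_sup.1 hx
      exact ⟨(⟨a, ha⟩, ⟨b, hb⟩), rfl⟩)

theorem supEquiv_apply {A B : Submodule F[X] M} (h : A ⊓ B = ⊥) (z : A × B) :
    ((supEquiv h z : ↥(A ⊔ B)) : M) = (z.1 : M) + (z.2 : M) := rfl

/-- The dimension over the coefficient field. -/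
noncomputable abbrev fdim (W : Submodule F[X] M) : ℕ := Module.finrank F W

theorem fdim_sup [Module.Finite F M] {A B : Submodule F[X] M} (h : A ⊓ B = ⊥) :
    fdim (F := F) (A ⊔ B) = fdim A + fdim B := by
  have : ∀ W : Submodule F[X] M, Module.Finite F W := fun W =>
    Module.Finite.of_injective (W.subtype.restrictScalars F) Subtype.val_injective
  rw [fdim, ← ((supEquiv h).restrictScalars F).finrank_eq, Module.finrank_prod]

theorem card_sup {A B : Submodule F[X] M} (h : A ⊓ B = ⊥) :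
    Nat.card ↥(A ⊔ B) = Nat.card A * Nat.card B := by
  rw [← Nat.card_congr (supEquiv h).toEquiv, Nat.card_prod]

theorem card_eq_pow_fdim [Fintype F] [Module.Finite F M] (W : Submodule F[X] M) :
    Nat.card W = Fintype.card F ^ fdim (F := F) W := by
  have : Module.Finite F W := Module.Finite.of_injective (W.subtype.restrictScalars F) Subtype.val_injective
  rw [Module.natCard_eq_pow_finrank (K := F), Nat.card_eq_fintype_card]

/-- A kernel meets a direct sum componentwise. -/
theorem sup_inf_kerBy {A B : Submodule F[X] M} (h : A ⊓ B = ⊥) (f : F[X]) :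
    (A ⊔ B) ⊓ kerBy f = (A ⊓ kerBy f) ⊔ (B ⊓ kerBy f) := by
  refine le_antisymm ?_ (sup_le (inf_le_inf_right _ le_sup_left) (inf_le_inf_right _ le_sup_right))
  rintro x ⟨hx, hk⟩
  rw [SetLike.mem_coe, mem_kerBy] at hk
  obtain ⟨a, ha, b, hb, rfl⟩ := Submodule.mem_sup.1 hx
  rw [smul_add] at hk
  have h1 : f • a ∈ A ⊓ B := ⟨A.smul_mem _ ha, by rw [eq_neg_of_add_eq_zero_left hk]; exact B.neg_mem (B.smul_mem _ hb)⟩
  rw [h, Submodule.mem_bot] at h1
  rw [h1, zero_add] at hk
  exact Submodule.mem_sup.2 ⟨a, ⟨ha, mem_kerBy.2 h1⟩, b, ⟨hb, mem_kerBy.2 hk⟩, rfl⟩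

theorem inf_kerBy_disjoint {A B : Submodule F[X] M} (h : A ⊓ B = ⊥) (f : F[X]) :
    (A ⊓ kerBy f) ⊓ (B ⊓ kerBy f) = ⊥ :=
  le_bot_iff.1 ((inf_le_inf inf_le_left inf_le_left).trans h.le)

/-! ### Cyclic simple submodules -/

variable {f : F[X]} {v : M}

theorem span_le_kerBy (hv : f • v = 0) : (F[X] ∙ v) ≤ kerBy f := by
  rw [Submodule.span_singleton_le_iff_mem, mem_kerBy]; exact hv

theorem ker_toSpan_eq (hf : Irreducible f) (hv0 : v ≠ 0) (hv : f • v = 0) :
    LinearMap.ker (LinearMap.toSpanSingleton F[X] M v) = Ideal.span {f} := by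
  have hmax : (Ideal.span {f}).IsMaximal := PrincipalIdealRing.isMaximal_of_irreducible hf
  refine (hmax.eq_of_le (fun e => ?_) ?_).symm
  · have : (1 : F[X]) ∈ LinearMap.ker (LinearMap.toSpanSingleton F[X] M v) := by
      rw [e]; trivial
    exact hv0 (by simpa using this)
  · rw [Ideal.span_le, Set.singleton_subset_iff, SetLike.mem_coe, LinearMap.mem_ker,
      LinearMap.toSpanSingleton_apply]
    exact hv

/-- The cyclic submodule on a vector killed by an irreducible polynomial. -/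
noncomputable def spanEquiv (hf : Irreducible f) (hv0 : v ≠ 0) (hv : f • v = 0) :
    (F[X] ⧸ Ideal.span {f}) ≃ₗ[F[X]] ↥(F[X] ∙ v) :=
  (Submodule.quotEquivOfEq _ _ (ker_toSpan_eq hf hv0 hv).symm).trans
    ((LinearMap.toSpanSingleton F[X] M v).quotKerEquivRange.trans
      (LinearEquiv.ofEq _ _ (LinearMap.range_toSpanSingleton v)))

theorem fdim_span (hf : Irreducible f) (hv0 : v ≠ 0) (hv : f • v = 0) :
    fdim (F := F) (F[X] ∙ v) = f.natDegree := by
  rw [fdim, ← ((spanEquiv hf hv0 hv).restrictScalars F).finrank_eq]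
  exact finrank_quotient_span_eq_natDegree

/-- A cyclic submodule on a vector killed by an irreducible polynomial is simple. -/
theorem span_le_or_inf_eq_bot (hf : Irreducible f) (hv : f • v = 0) (W : Submodule F[X] M) :
    (F[X] ∙ v) ≤ W ∨ W ⊓ (F[X] ∙ v) = ⊥ := by
  by_cases h : W ⊓ (F[X] ∙ v) = ⊥
  · exact Or.inr h
  · refine Or.inl ?_
    obtain ⟨x, hx, hx0⟩ := Submodule.exists_mem_ne_zero_of_ne_bot h
    obtain ⟨hxW, hxv⟩ := hx
    obtain ⟨a, rfl⟩ := Submodule.mem_span_singleton.1 hxv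
    have hna : ¬ f ∣ a := by
      rintro ⟨b, rfl⟩
      exact hx0 (by rw [mul_comm, mul_smul, hv, smul_zero])
    obtain ⟨s, t, hst⟩ := (hf.coprime_iff_not_dvd.2 hna)
    rw [Submodule.span_singleton_le_iff_mem]
    have : v = t • a • v := by
      calc v = (s * f + t * a) • v := by rw [hst, one_smul]
        _ = t • a • v := by rw [add_smul, mul_smul, hv, smul_zero, zero_add, mul_smul]
    rw [this]
    exact W.smul_mem _ hxW

theorem kerBy_inf_of_not_dvd {g : F[X]} (hf : Irreducible f) (h : ¬ f ∣ g) :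
    kerBy (M := M) f ⊓ kerBy g = ⊥ := by
  rw [eq_bot_iff]
  rintro x ⟨h1, h2⟩
  rw [SetLike.mem_coe, mem_kerBy] at h1 h2
  obtain ⟨s, t, hst⟩ := hf.coprime_iff_not_dvd.2 h
  rw [Submodule.mem_bot, ← one_smul F[X] x, ← hst, add_smul, mul_smul, mul_smul, h1, h2, smul_zero,
    smul_zero, add_zero]

/-- Every non-zero submodule of a module killed by a product of members of `S` meets one of their kernels. -/
theorem exists_kerBy_ne (S : Multiset F[X]) (W : Submodule F[X] M) :
    ∀ w ∈ W, w ≠ 0 → S.prod • w = 0 → ∃ f ∈ S, ∃ v ∈ W, v ≠ 0 ∧ f • v = 0 := by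
  induction S using Multiset.induction with
  | empty => intro w _ h0 h; simp at h; exact absurd h h0
  | cons a S ih =>
    intro w hw h0 h
    rw [Multiset.prod_cons, mul_smul] at h
    by_cases hr : S.prod • w = 0
    · obtain ⟨f, hf, rest⟩ := ih w hw h0 hr
      exact ⟨f, Multiset.mem_cons_of_mem hf, rest⟩
    · exact ⟨a, Multiset.mem_cons_self _ _, _, W.smul_mem _ hw, hr, h⟩

/-! ### Homomorphisms into a simple submodule -/

/-- Homomorphisms out of a cyclic simple module are vectors killed by the same polynomial. -/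
theorem card_hom_span {g : F[X]} (hg : Irreducible g) (hv0 : v ≠ 0) (hv : g • v = 0)
    (L : Submodule F[X] M) :
    Nat.card (↥(F[X] ∙ v) →ₗ[F[X]] ↥L) = Nat.card ↥(L ⊓ kerBy g) := by
  refine Nat.card_congr (Equiv.ofBijective
    (fun φ => ⟨(φ ⟨v, Submodule.mem_span_singleton_self v⟩ : M), (φ _).2, ?_⟩) ⟨?_, ?_⟩)
  · rw [SetLike.mem_coe, mem_kerBy, ← Submodule.coe_smul, ← map_smul]
    have : g • (⟨v, Submodule.mem_span_singleton_self v⟩ : ↥(F[X] ∙ v)) = 0 := Subtype.ext hv
    rw [this, map_zero, Submodule.coe_zero]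
  · intro φ ψ e
    have e' : φ ⟨v, Submodule.mem_span_singleton_self v⟩ = ψ ⟨v, Submodule.mem_span_singleton_self v⟩ :=
      Subtype.ext (congrArg Subtype.val e :)
    refine LinearMap.ext fun x => ?_
    obtain ⟨a, ha⟩ := Submodule.mem_span_singleton.1 x.2
    have : x = a • ⟨v, Submodule.mem_span_singleton_self v⟩ := Subtype.ext ha.symm
    rw [this, map_smul, map_smul, e']
  · rintro ⟨l, hlL, hlg⟩
    rw [SetLike.mem_coe, mem_kerBy] at hlg
    let φ0 : (F[X] ⧸ Ideal.span {g}) →ₗ[F[X]] ↥L :=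
      Submodule.liftQ _ (LinearMap.toSpanSingleton F[X] ↥L ⟨l, hlL⟩) (by
        rw [Ideal.span_le, Set.singleton_subset_iff, SetLike.mem_coe, LinearMap.mem_ker,
          LinearMap.toSpanSingleton_apply]
        exact Subtype.ext hlg)
    refine ⟨φ0 ∘ₗ (spanEquiv hg hv0 hv).symm.toLinearMap, Subtype.ext ?_⟩
    have : (spanEquiv hg hv0 hv).symm ⟨v, Submodule.mem_span_singleton_self v⟩ = Submodule.Quotient.mk 1 := by
      rw [LinearEquiv.symm_apply_eq]
      apply Subtype.ext
      exact (one_smul F[X] v).symm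
    show (((φ0 ∘ₗ (spanEquiv hg hv0 hv).symm.toLinearMap) ⟨v, Submodule.mem_span_singleton_self v⟩ : ↥L) : M) = l
    rw [LinearMap.comp_apply, LinearEquiv.coe_coe, this]
    exact one_smul F[X] l

variable [IsSemisimpleModule F[X] M]

/-- A complement inside a submodule. -/
theorem exists_compl_le {A X : Submodule F[X] M} (h : A ≤ X) :
    ∃ Y : Submodule F[X] M, A ⊓ Y = ⊥ ∧ A ⊔ Y = X := by
  obtain ⟨C, hC⟩ := exists_isCompl A
  refine ⟨X ⊓ C, ?_, ?_⟩
  · exact le_bot_iff.1 ((inf_le_inf_left _ inf_le_right).trans hC.inf_eq_bot.le)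
  · rw [inf_comm X C, ← sup_inf_assoc_of_le C h, hC.sup_eq_top, top_inf_eq]

variable [Fintype F] [Module.Finite F M]

/-- Homomorphisms into a simple submodule and divisibility of the dimension of a kernel. -/
theorem card_hom_eq (S : Multiset F[X]) (hS : ∀ g ∈ S, g.Monic ∧ Irreducible g)
    (hkill : ∀ w : M, S.prod • w = 0) (hfm : f.Monic) (hf : Irreducible f) (hv0 : v ≠ 0) (hv : f • v = 0)
    (W : Submodule F[X] M) :
    Nat.card (↥W →ₗ[F[X]] ↥(F[X] ∙ v)) = Nat.card ↥(W ⊓ kerBy f) := by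
  induction hn : fdim (F := F) W using Nat.strong_induction_on generalizing W with
  | _ n ih =>
    subst hn
    by_cases hW : W = ⊥
    · subst hW
      rw [bot_inf_eq]
      have : Subsingleton (↥(⊥ : Submodule F[X] M) →ₗ[F[X]] ↥(F[X] ∙ v)) :=
        ⟨fun a b => LinearMap.ext fun x => by rw [Subsingleton.elim x 0, map_zero, map_zero]⟩
      rw [Nat.card_unique, Nat.card_unique]
    · obtain ⟨w, hw, hw0⟩ := Submodule.exists_mem_ne_zero_of_ne_bot hW
      obtain ⟨g, hgS, u, huW, hu0, hu⟩ := exists_kerBy_ne S W w hw hw0 (hkill w)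
      obtain ⟨hgm, hg⟩ := hS g hgS
      obtain ⟨Y, hY1, hY2⟩ := exists_compl_le ((Submodule.span_singleton_le_iff_mem u W).2 huW)
      have hlt : fdim (F := F) Y < fdim (F := F) W := by
        rw [← hY2, fdim_sup hY1, fdim_span hg hu0 hu]
        have := hg.natDegree_pos
        omega
      have e : Nat.card (↥W →ₗ[F[X]] ↥(F[X] ∙ v)) = Nat.card (↥(F[X] ∙ u) →ₗ[F[X]] ↥(F[X] ∙ v)) *
          Nat.card (↥Y →ₗ[F[X]] ↥(F[X] ∙ v)) := by
        rw [← Nat.card_prod]
        subst hY2
        exact Nat.card_congr (((supEquiv hY1).congrLeft (↥(F[X] ∙ v)) F[X]).symm.toEquiv.trans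
          (LinearMap.coprodEquiv F[X]).symm.toEquiv)
      rw [e, ih _ hlt Y rfl, card_hom_span hg hu0 hu]
      conv_rhs => rw [← hY2, sup_inf_kerBy hY1, card_sup (inf_kerBy_disjoint hY1 f)]
      congr 1
      by_cases hfg : f = g
      · subst hfg
        rw [inf_eq_left.2 (span_le_kerBy hu), inf_eq_left.2 (span_le_kerBy hv), card_eq_pow_fdim,
          card_eq_pow_fdim, fdim_span hf hu0 hu, fdim_span hf hv0 hv]
      · have hnd : ¬ f ∣ g := fun hd => hfg (eq_of_monic_of_associated hfm hgm (hf.associated_of_dvd hg hd))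
        have h1 : (F[X] ∙ v) ⊓ kerBy g = ⊥ :=
          le_bot_iff.1 ((inf_le_inf_right _ (span_le_kerBy hv)).trans (kerBy_inf_of_not_dvd hf hnd).le)
        have h2 : (F[X] ∙ u) ⊓ kerBy f = ⊥ := by
          rw [eq_bot_iff, ← kerBy_inf_of_not_dvd (M := M) hf hnd, inf_comm (kerBy f)]
          exact inf_le_inf_right _ (span_le_kerBy hu)
        rw [h1, h2]

/-- The dimension of a kernel is a multiple of the degree. -/
theorem dvd_fdim_kerBy (hf : Irreducible f) (W : Submodule F[X] M) :
    f.natDegree ∣ fdim (F := F) (W ⊓ kerBy f) := by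
  induction hn : fdim (F := F) (W ⊓ kerBy f) using Nat.strong_induction_on generalizing W with
  | _ n ih =>
    subst hn
    by_cases hW : W ⊓ kerBy f = ⊥
    · have : Subsingleton ↥(W ⊓ kerBy f) := by rw [hW]; infer_instance
      rw [fdim, Module.finrank_zero_of_subsingleton]; exact dvd_zero _
    · obtain ⟨u, ⟨huW, hu⟩, hu0⟩ := Submodule.exists_mem_ne_zero_of_ne_bot hW
      rw [SetLike.mem_coe, mem_kerBy] at hu
      obtain ⟨Y, hY1, hY2⟩ := exists_compl_le ((Submodule.span_singleton_le_iff_mem u W).2 huW)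
      have he : fdim (F := F) (W ⊓ kerBy f) = f.natDegree + fdim (F := F) (Y ⊓ kerBy f) := by
        rw [← hY2, sup_inf_kerBy hY1, fdim_sup (inf_kerBy_disjoint hY1 f),
          inf_eq_left.2 (span_le_kerBy hu), fdim_span hf hu0 hu]
      rw [he]
      refine dvd_add dvd_rfl (ih _ ?_ Y rfl)
      rw [he]
      have := hf.natDegree_pos
      omega

end Cfsg.Agent.H42.StValues
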