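/-
The Moebius function of the submodule lattice of a finite semisimple module over a polynomial ring.
-/
import Cfsg.Agent.H42.StValues.Semisimple

set_option autoImplicit false

open Polynomial Submodule

namespace Cfsg.Agent.H42.StValues

variable {F : Type*} [Field F] {M : Type*} [AddCommGroup M] [Module F[X] M] [Module F M]
  [IsScalarTower F F[X] M]

/-- The multiplicity of `f` in a submodule. -/
noncomputable def mult (f : F[X]) (W : Submodule F[X] M) : ℕ := fdim (F := F) (W ⊓ kerBy f) / f.natDegree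

/-- The local factor of the Moebius function. -/
def muFactor (q d m : ℕ) : ℤ := (-1) ^ m * (q : ℤ) ^ (d * m.choose 2)

theorem muFactor_succ (q d m : ℕ) :
    muFactor q d (m + 1) = -((q : ℤ) ^ (d * m) * muFactor q d m) := by
  rw [muFactor, muFactor, Nat.choose_succ_succ, Nat.choose_one_right, mul_add, pow_add, pow_succ]
  ring

variable [Fintype F]

/-- The candidate for the Moebius function. -/
noncomputable def mu (S : Finset F[X]) (W : Submodule F[X] M) : ℤ :=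
  ∏ f ∈ S, muFactor (Fintype.card F) f.natDegree (mult f W)

theorem mu_bot (S : Finset F[X]) : mu S (⊥ : Submodule F[X] M) = 1 := by
  refine Finset.prod_eq_one fun f _ => ?_
  have h0 : mult f (⊥ : Submodule F[X] M) = 0 := by
    have : Subsingleton ↥((⊥ : Submodule F[X] M) ⊓ kerBy f) := by rw [bot_inf_eq]; infer_instance
    rw [mult, fdim, Module.finrank_zero_of_subsingleton, Nat.zero_div]
  rw [h0]; simp [muFactor]

variable [Module.Finite F M] [IsSemisimpleModule F[X] M]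

/-- Adding a simple summand of type `f`. -/
theorem mu_sup_span (S : Finset F[X]) (hS : ∀ g ∈ S, g.Monic ∧ Irreducible g) {f : F[X]} (hfS : f ∈ S)
    {v : M} (hv0 : v ≠ 0) (hv : f • v = 0) {W : Submodule F[X] M} (hW : W ⊓ (F[X] ∙ v) = ⊥) :
    mu S (W ⊔ (F[X] ∙ v)) = -((Nat.card ↥(W ⊓ kerBy f) : ℤ) * mu S W) := by
  classical
  obtain ⟨hfm, hf⟩ := hS f hfS
  rw [mu, mu, ← Finset.mul_prod_erase _ _ hfS, ← Finset.mul_prod_erase _ _ hfS, neg_mul_eq_neg_mul,
    ← mul_assoc]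
  congr 1
  · have hd := dvd_fdim_kerBy (M := M) hf W
    have hm : mult f (W ⊔ (F[X] ∙ v)) = mult f W + 1 := by
      rw [mult, mult, sup_inf_kerBy hW, fdim_sup (inf_kerBy_disjoint hW f),
        inf_eq_left.2 (span_le_kerBy hv), fdim_span hf hv0 hv, Nat.add_div_right _ hf.natDegree_pos]
    rw [hm, muFactor_succ, card_eq_pow_fdim, Nat.cast_pow, mult, Nat.mul_div_cancel' hd, neg_mul]
  · refine Finset.prod_congr rfl fun g hg => ?_
    obtain ⟨hgf, hgS⟩ := Finset.mem_erase.1 hg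
    obtain ⟨hgm, hgi⟩ := hS g hgS
    have hnd : ¬ f ∣ g := fun hd => hgf (eq_of_monic_of_associated hgm hfm (hf.associated_of_dvd hgi hd).symm)
    have hz : (F[X] ∙ v) ⊓ kerBy g = ⊥ :=
      le_bot_iff.1 ((inf_le_inf_right _ (span_le_kerBy hv)).trans (kerBy_inf_of_not_dvd hf hnd).le)
    rw [mult, mult, sup_inf_kerBy hW, hz, sup_bot_eq]

/-- The complements of a simple submodule inside a larger one are counted by homomorphisms. -/
theorem card_compl_eq (S : Multiset F[X]) (hS : ∀ g ∈ S, g.Monic ∧ Irreducible g)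
    (hkill : ∀ w : M, S.prod • w = 0) {f : F[X]} (hfm : f.Monic) (hf : Irreducible f)
    {v : M} (hv0 : v ≠ 0) (hv : f • v = 0) {W₀ : Submodule F[X] M} (hW₀ : W₀ ⊓ (F[X] ∙ v) = ⊥) :
    Nat.card {W : Submodule F[X] M // W ⊓ (F[X] ∙ v) = ⊥ ∧ W ⊔ (F[X] ∙ v) = W₀ ⊔ (F[X] ∙ v)} =
      Nat.card ↥(W₀ ⊓ kerBy f) := by
  rw [← card_hom_eq S hS hkill hfm hf hv0 hv W₀]
  symm
  set L := (F[X] ∙ v) with hL
  let graph : (↥W₀ →ₗ[F[X]] ↥L) → Submodule F[X] M := fun φ =>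
    LinearMap.range (W₀.subtype + L.subtype ∘ₗ φ)
  have hmem : ∀ φ x, x ∈ graph φ ↔ ∃ w : ↥W₀, (w : M) + (φ w : M) = x := fun φ x => Iff.rfl
  have huniq : ∀ (a b : ↥W₀) (k l : ↥L), (a : M) + k = b + l → a = b ∧ k = l := by
    intro a b k l e
    have h2 : ((a - b : ↥W₀) : M) = ((l - k : ↥L) : M) := by
      push_cast
      rw [sub_eq_sub_iff_add_eq_add, e, add_comm]
    have h3 : ((a - b : ↥W₀) : M) ∈ W₀ ⊓ L := ⟨(a - b).2, h2 ▸ (l - k).2⟩
    rw [hW₀, Submodule.mem_bot] at h3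
    have h4 : ((l - k : ↥L) : M) = 0 := h2 ▸ h3
    exact ⟨sub_eq_zero.1 (Subtype.ext h3), (sub_eq_zero.1 (Subtype.ext h4)).symm⟩
  refine Nat.card_congr (Equiv.ofBijective (fun φ => ⟨graph φ, ?_, ?_⟩) ⟨?_, ?_⟩)
  · rw [eq_bot_iff]
    rintro x ⟨hx, hxL⟩
    obtain ⟨w, rfl⟩ := (hmem φ x).1 hx
    obtain ⟨rfl, h⟩ := huniq w 0 (φ w) ⟨_, hxL⟩ (by simp)
    simp
  · refine le_antisymm (sup_le ?_ le_sup_right) (sup_le ?_ le_sup_right)
    · intro x hx
      obtain ⟨w, rfl⟩ := (hmem φ x).1 hx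
      exact Submodule.mem_sup.2 ⟨w, w.2, _, (φ w).2, rfl⟩
    · intro x hx
      exact Submodule.mem_sup.2 ⟨x + (φ ⟨x, hx⟩ : M), (hmem φ _).2 ⟨⟨x, hx⟩, rfl⟩,
        -(φ ⟨x, hx⟩ : M), L.neg_mem (φ ⟨x, hx⟩).2, by simp⟩
  · intro φ ψ e
    refine LinearMap.ext fun w => ?_
    have eg : graph φ = graph ψ := congrArg Subtype.val e
    have : (w : M) + (φ w : M) ∈ graph ψ := eg ▸ (hmem φ _).2 ⟨w, rfl⟩
    obtain ⟨w', hw'⟩ := (hmem ψ _).1 this
    obtain ⟨rfl, h⟩ := huniq _ _ _ _ hw'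
    exact h.symm
  · rintro ⟨W, hW1, hW2⟩
    let E := supEquiv hW1
    let ι₀ : ↥W₀ →ₗ[F[X]] ↥(W ⊔ L) := Submodule.inclusion (le_sup_left.trans hW2.ge)
    let ψ : ↥W₀ →ₗ[F[X]] ↥W × ↥L := E.symm.toLinearMap ∘ₗ ι₀
    have hψ : ∀ w : ↥W₀, ((ψ w).1 : M) + ((ψ w).2 : M) = w := fun w => by
      rw [← supEquiv_apply hW1 (ψ w)]
      exact congrArg Subtype.val (E.apply_symm_apply (ι₀ w))
    refine ⟨-(LinearMap.snd F[X] _ _ ∘ₗ ψ), Subtype.ext (le_antisymm ?_ ?_)⟩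
    · intro x hx
      obtain ⟨w, rfl⟩ := (hmem _ x).1 hx
      have : (w : M) + ((-(LinearMap.snd F[X] _ _ ∘ₗ ψ)) w : ↥L) = (ψ w).1 := by
        simp only [LinearMap.neg_apply, LinearMap.comp_apply, LinearMap.snd_apply, Submodule.coe_neg]
        rw [← sub_eq_add_neg, sub_eq_iff_eq_add]
        exact (hψ w).symm
      rw [this]
      exact (ψ w).1.2
    · intro a ha
      have ha' : a ∈ W₀ ⊔ L := hW2 ▸ Submodule.mem_sup_left ha
      obtain ⟨w, hw, l, hl, rfl⟩ := Submodule.mem_sup.1 ha'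
      refine (hmem _ _).2 ⟨⟨w, hw⟩, ?_⟩
      have h1 : ψ ⟨w, hw⟩ = (⟨w + l, ha⟩, ⟨-l, L.neg_mem hl⟩) := by
        rw [show ψ ⟨w, hw⟩ = E.symm (ι₀ ⟨w, hw⟩) from rfl, LinearEquiv.symm_apply_eq]
        apply Subtype.ext
        rw [supEquiv_apply]
        show w = (w + l) + -l
        simp
      simp [h1]

/-- The candidate sums to zero on every non-trivial lower interval. -/
theorem sum_mu_eq_zero [Finite M] (S : Finset F[X]) (hS : ∀ g ∈ S, g.Monic ∧ Irreducible g)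
    (T : Multiset F[X]) (hT : ∀ g ∈ T, g ∈ S) (hkill : ∀ w : M, T.prod • w = 0)
    [Fintype (Submodule F[X] M)] (U : Submodule F[X] M) (hU : U ≠ ⊥)
    [DecidablePred fun W : Submodule F[X] M => W ≤ U] :
    ∑ W ∈ Finset.univ.filter (fun W => W ≤ U), mu S W = 0 := by
  classical
  have hT' : ∀ g ∈ T, g.Monic ∧ Irreducible g := fun g hg => hS g (hT g hg)
  obtain ⟨w, hw, hw0⟩ := Submodule.exists_mem_ne_zero_of_ne_bot hU
  obtain ⟨f, hfT, v, hvU, hv0, hv⟩ := exists_kerBy_ne T U w hw hw0 (hkill w)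
  obtain ⟨hfm, hf⟩ := hT' f hfT
  set L := (F[X] ∙ v) with hL
  have hLU : L ≤ U := (Submodule.span_singleton_le_iff_mem v U).2 hvU
  rw [← Finset.sum_fiberwise_of_maps_to (g := fun W => W ⊔ L)
    (t := Finset.univ.filter fun W => L ≤ W ∧ W ≤ U) (fun W hW => by
      simp only [Finset.mem_filter, Finset.mem_univ, true_and] at hW ⊢
      exact ⟨le_sup_right, sup_le hW hLU⟩)]
  refine Finset.sum_eq_zero fun U' hU' => ?_
  simp only [Finset.mem_filter, Finset.mem_univ, true_and] at hU'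
  obtain ⟨hLU', hU'U⟩ := hU'
  obtain ⟨W₀, hW₀', hW₀s⟩ := exists_compl_le hLU'
  have hW₀ : W₀ ⊓ L = ⊥ := by rw [inf_comm]; exact hW₀'
  have hW₀s' : W₀ ⊔ L = U' := by rw [sup_comm]; exact hW₀s
  set C := Finset.univ.filter (fun W : Submodule F[X] M => W ⊓ L = ⊥ ∧ W ⊔ L = W₀ ⊔ L) with hC
  have hset : (Finset.univ.filter fun W => W ≤ U).filter (fun W => W ⊔ L = U') = insert U' C := by
    ext W
    simp only [Finset.mem_filter, Finset.mem_univ, true_and, Finset.mem_insert, hC, hW₀s']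
    constructor
    · rintro ⟨-, hW⟩
      rcases span_le_or_inf_eq_bot hf hv W with h | h
      · exact Or.inl (by rw [← hW, sup_eq_left.2 h])
      · exact Or.inr ⟨h, hW⟩
    · rintro (rfl | ⟨-, hW⟩)
      · exact ⟨hU'U, sup_eq_left.2 hLU'⟩
      · exact ⟨(le_sup_left.trans hW.le).trans hU'U, hW⟩
  have hnot : U' ∉ C := by
    simp only [hC, Finset.mem_filter, Finset.mem_univ, true_and, not_and]
    intro h
    rw [inf_eq_right.2 hLU', hL, Submodule.span_singleton_eq_bot] at h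
    exact absurd h hv0
  set k := Nat.card ↥(W₀ ⊓ kerBy f) with hk
  have hcard : C.card = k := by
    rw [hk, ← card_compl_eq T hT' hkill hfm hf hv0 hv hW₀, ← Fintype.card_subtype, Nat.card_eq_fintype_card]
  have hk0 : (k : ℤ) ≠ 0 := by
    have : Nonempty ↥(W₀ ⊓ kerBy f) := ⟨0⟩
    exact_mod_cast (Nat.card_pos (α := ↥(W₀ ⊓ kerBy f))).ne'
  have hval : ∀ W ∈ C, (k : ℤ) * mu S W = -mu S U' := by
    intro W hW
    simp only [hC, Finset.mem_filter, Finset.mem_univ, true_and] at hW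
    have hWk : Nat.card ↥(W ⊓ kerBy f) = k := by
      have h2 := congrArg (fun X => fdim (F := F) (X ⊓ kerBy f)) hW.2
      simp only [sup_inf_kerBy hW.1, sup_inf_kerBy hW₀, fdim_sup (inf_kerBy_disjoint hW.1 f),
        fdim_sup (inf_kerBy_disjoint hW₀ f)] at h2
      rw [hk, card_eq_pow_fdim, card_eq_pow_fdim, add_right_cancel h2]
    have := mu_sup_span S hS (hT f hfT) hv0 hv hW.1
    rw [hWk] at this
    rw [← hW₀s', ← hW.2, this, neg_neg]
  rw [hset, Finset.sum_insert hnot]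
  have hsum : (k : ℤ) * ∑ W ∈ C, mu S W = (k : ℤ) * -mu S U' := by
    rw [Finset.mul_sum, Finset.sum_congr rfl hval, Finset.sum_const, hcard, nsmul_eq_mul]
  rw [mul_left_cancel₀ hk0 hsum]
  ring

end Cfsg.Agent.H42.StValues
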