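/-
Fixed points of an element of `GL_n` on partial flags as chains of invariant subspaces.
-/
import Cfsg.Agent.H70.FlagOrbits
import Cfsg.Agent.H42.StValues.Semisimple

set_option autoImplicit false

open Polynomial Cfsg.Agent.H70

namespace Cfsg.Agent.H42.StValues

variable {F : Type*} [Field F]

/-- A chain of subspaces has an adapted spanning sequence. -/
theorem exists_adapted {V : Type*} [AddCommGroup V] [Module F V] [FiniteDimensional F V] :
    ∀ (N : ℕ) (C : Finset (Submodule F V)) (U : Submodule F V), C.card ≤ N → (∀ W ∈ C, W ≤ U) →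
      IsChain (· ≤ ·) (C : Set (Submodule F V)) →
      ∃ v : ℕ → V, Submodule.span F (v '' Set.Iio (Module.finrank F U)) = U ∧
        ∀ W ∈ C, Submodule.span F (v '' Set.Iio (Module.finrank F W)) = W := by
  classical
  have ext : ∀ (m U : Submodule F V), m ≤ U → ∀ v' : ℕ → V,
      Submodule.span F (v' '' Set.Iio (Module.finrank F m)) = m →
      ∃ v : ℕ → V, (∀ i < Module.finrank F m, v i = v' i) ∧
        Submodule.span F (v '' Set.Iio (Module.finrank F U)) = U := by
    intro m U hmU v' hv'
    obtain ⟨Q, hQ⟩ := exists_isCompl m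
    set d := Module.finrank F m with hd
    set Z := U ⊓ Q with hZ
    have hmZ : m ⊔ Z = U := by rw [hZ, inf_comm, ← sup_inf_assoc_of_le Q hmU, hQ.sup_eq_top, top_inf_eq]
    have hdis : m ⊓ Z = ⊥ := le_bot_iff.1 ((inf_le_inf_left _ inf_le_right).trans hQ.inf_eq_bot.le)
    have hdim : Module.finrank F U = d + Module.finrank F Z := by
      have := Submodule.finrank_sup_add_finrank_inf_eq m Z
      rw [hmZ, hdis, finrank_bot, add_zero] at this
      exact this
    let b := Module.finBasis F Z
    let v : ℕ → V := fun i => if i < d then v' i else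
      if h : i - d < Module.finrank F Z then (b ⟨i - d, h⟩ : V) else 0
    refine ⟨v, fun i hi => if_pos hi, ?_⟩
    have himg : v '' Set.Iio (Module.finrank F U) = (v' '' Set.Iio d) ∪ Set.range (fun k => (b k : V)) := by
      ext x
      simp only [Set.mem_image, Set.mem_Iio, Set.mem_union, Set.mem_range]
      constructor
      · rintro ⟨i, hi, rfl⟩
        by_cases h : i < d
        · exact Or.inl ⟨i, h, (if_pos h).symm⟩
        · exact Or.inr ⟨⟨i - d, by omega⟩, by simp only [v]; rw [if_neg h, dif_pos (show i - d < _ by omega)]⟩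
      · rintro (⟨i, hi, rfl⟩ | ⟨k, rfl⟩)
        · exact ⟨i, by omega, if_pos hi⟩
        · refine ⟨d + k.val, by have := k.isLt; omega, ?_⟩
          simp only [v]
          rw [if_neg (by omega), dif_pos (show d + k.val - d < _ by have := k.isLt; omega)]
          simp
    rw [himg, Submodule.span_union, hv']
    have : Submodule.span F (Set.range fun k => (b k : V)) = Z := by
      rw [show (Set.range fun k => (b k : V)) = Z.subtype '' Set.range b by rw [← Set.range_comp]; rfl,
        Submodule.span_image, b.span_eq, Submodule.map_top, Submodule.range_subtype]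
    rw [this, hmZ]
  intro N
  induction N with
  | zero =>
    intro C U hN _ _
    obtain ⟨v, -, hv⟩ := ext ⊥ U bot_le (fun _ => 0) (by simp)
    exact ⟨v, hv, fun W hW => absurd hW (by rw [Finset.card_eq_zero.1 (Nat.le_zero.1 hN)]; simp)⟩
  | succ N ih =>
    intro C U hN hle hC
    rcases C.eq_empty_or_nonempty with rfl | hne
    · obtain ⟨v, -, hv⟩ := ext ⊥ U bot_le (fun _ => 0) (by simp)
      exact ⟨v, hv, fun W hW => absurd hW (by simp)⟩
    obtain ⟨m, hm, hmax⟩ : ∃ m ∈ C, ∀ W ∈ C, W ≤ m := by
      obtain ⟨m, hm⟩ := C.exists_maximal hne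
      exact ⟨m, hm.1, fun W hW => (hC.total hW hm.1).elim id fun h => hm.2 hW h⟩
    obtain ⟨v', hv', hvC⟩ := ih (C.erase m) m (by rw [Finset.card_erase_of_mem hm]; omega)
      (fun W hW => hmax W (Finset.mem_of_mem_erase hW))
      (hC.mono (Finset.coe_subset.2 (Finset.erase_subset _ _)))
    obtain ⟨v, heq, hv⟩ := ext m U (hle m hm) v' hv'
    refine ⟨v, hv, fun W hW => ?_⟩
    have hWm := Submodule.finrank_mono (hmax W hW)
    have himg : v '' Set.Iio (Module.finrank F W) = v' '' Set.Iio (Module.finrank F W) :=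
      Set.image_congr fun i hi => heq i (lt_of_lt_of_le hi hWm)
    rw [himg]
    rcases eq_or_ne W m with rfl | hne'
    · exact hv'
    · exact hvC W (Finset.mem_erase.2 ⟨hne', hW⟩)

variable {n : ℕ}

/-- The span of the first `d` coordinate vectors. -/
def low (d : ℕ) : Submodule F (Fin n → F) := coordSub (Finset.univ.filter fun a : Fin n => a.val < d)

theorem mem_low {d : ℕ} {v : Fin n → F} : v ∈ low (F := F) d ↔ ∀ a : Fin n, d ≤ a.val → v a = 0 := by
  simp [low, mem_coordSub]

theorem low_eq_span (d : ℕ) :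
    low (F := F) (n := n) d = Submodule.span F ((fun i : Fin n => Pi.single i (1 : F)) '' {i | i.val < d}) := by
  classical
  refine le_antisymm (fun v hv => ?_) (Submodule.span_le.2 ?_)
  · rw [show v = ∑ i, v i • (Pi.single i (1 : F) : Fin n → F) from pi_eq_sum_univ' v]
    refine Submodule.sum_mem _ fun i _ => ?_
    by_cases h : i.val < d
    · exact Submodule.smul_mem _ _ (Submodule.subset_span ⟨i, h, rfl⟩)
    · rw [mem_low.1 hv i (not_lt.1 h), zero_smul]; exact Submodule.zero_mem _
  · rintro _ ⟨i, hi, rfl⟩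
    refine mem_low.2 fun a ha => ?_
    show (Pi.single i (1 : F) : Fin n → F) a = 0
    rw [Pi.single_eq_of_ne]
    rintro rfl
    have : a.val < d := hi
    omega

theorem finrank_low {d : ℕ} (hd : d ≤ n) : Module.finrank F (low (F := F) (n := n) d) = d := by
  rw [low, finrank_coordSub, Fin.card_filter_val_lt, min_eq_right hd]

theorem finrank_glMap (g : GL (Fin n) F) (U : Submodule F (Fin n → F)) :
    Module.finrank F (glMap g U) = Module.finrank F U :=
  (U.equivMapOfInjective _ (glMap_injective g)).finrank_eq.symm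

theorem glMap_mono (g : GL (Fin n) F) {U W : Submodule F (Fin n → F)} (h : U ≤ W) : glMap g U ≤ glMap g W :=
  Submodule.map_mono h

theorem glMap_low (g : GL (Fin n) F) (d : ℕ) :
    glMap g (low (F := F) (n := n) d) =
      Submodule.span F ((fun i : Fin n => (g : Matrix (Fin n) (Fin n) F).col i) '' {i | i.val < d}) := by
  rw [glMap, low_eq_span, Submodule.map_span, Set.image_image]
  simp [Matrix.col_def, Matrix.transpose]

theorem mem_parabolic_iff_low {μ : Fin n → ℕ} (hμ : ∑ i, μ i = n) (g : GL (Fin n) F) :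
    g ∈ Cfsg.parabolicGL n F μ ↔ ∀ j : Fin n, glMap g (low (prefixSum μ j)) ≤ low (prefixSum μ j) := by
  have e : ∀ j : Fin n, (Finset.univ.filter fun x => blockLabel μ hμ x ≤ j) =
      Finset.univ.filter fun a : Fin n => a.val < prefixSum μ j :=
    fun j => Finset.filter_congr fun x _ => compLabel_le_iff μ x j
  refine ⟨fun hg j => ?_, fun h => (mem_parabolicGL_iff μ hμ g).2 fun x y hyx => ?_⟩
  · rw [low, ← e j]; exact (glMap_parabolic μ hμ hg j).le
  · set j := blockLabel μ hμ y with hj
    have hy : y.val < prefixSum μ j := (compLabel_le_iff μ y j).1 le_rfl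
    have hx : prefixSum μ j ≤ x.val := not_lt.1 fun hc =>
      absurd ((compLabel_le_iff μ x j).2 hc) (not_le.2 hyx)
    have hcol : (g : Matrix (Fin n) (Fin n) F).col y ∈ glMap g (low (F := F) (prefixSum μ j)) := by
      rw [glMap_low]; exact Submodule.subset_span ⟨y, hy, rfl⟩
    exact mem_low.1 (h j hcol) x hx

theorem fixed_iff {μ : Fin n → ℕ} (hμ : ∑ i, μ i = n) (x g : GL (Fin n) F) :
    x • (QuotientGroup.mk g : GL (Fin n) F ⧸ Cfsg.parabolicGL n F μ) = QuotientGroup.mk g ↔
      ∀ j : Fin n, glMap x (glMap g (low (prefixSum μ j))) ≤ glMap g (low (prefixSum μ j)) := by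
  rw [eq_comm, MulAction.Quotient.smul_mk, QuotientGroup.eq, mem_parabolic_iff_low hμ, smul_eq_mul]
  refine forall_congr' fun j => ?_
  constructor
  · intro h
    have := glMap_mono g h
    rwa [← glMap_mul, mul_inv_cancel_left, glMap_mul] at this
  · intro h
    have := glMap_mono g⁻¹ h
    rwa [← glMap_mul x g, ← glMap_mul, ← glMap_mul, inv_mul_cancel, glMap_one] at this

/-- The endomorphism of the column space. -/
noncomputable abbrev endo (x : GL (Fin n) F) : Module.End F (Fin n → F) :=
  Matrix.toLin' (x : Matrix (Fin n) (Fin n) F)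

/-- The column space as a module over the polynomial ring. -/
abbrev PolyModule (x : GL (Fin n) F) : Type _ := Module.AEval' (endo x)

/-- The subspace underlying a submodule over the polynomial ring. -/
noncomputable def toSub {x : GL (Fin n) F} (q : Submodule F[X] (PolyModule x)) : Submodule F (Fin n → F) :=
  (q.restrictScalars F).map (Module.AEval'.of (endo x)).symm.toLinearMap

theorem mem_toSub {x : GL (Fin n) F} {q : Submodule F[X] (PolyModule x)} {v : Fin n → F} :
    v ∈ toSub q ↔ Module.AEval'.of (endo x) v ∈ q := by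
  rw [toSub, Submodule.mem_map_equiv]; rfl

theorem toSub_le_iff {x : GL (Fin n) F} {q r : Submodule F[X] (PolyModule x)} : toSub q ≤ toSub r ↔ q ≤ r := by
  refine ⟨fun h v hv => ?_, fun h v hv => mem_toSub.2 (h (mem_toSub.1 hv))⟩
  have := h (mem_toSub.2 (show Module.AEval'.of (endo x) ((Module.AEval'.of (endo x)).symm v) ∈ q by simpa using hv))
  simpa using mem_toSub.1 this

theorem toSub_injective {x : GL (Fin n) F} :
    Function.Injective (toSub : Submodule F[X] (PolyModule x) → Submodule F (Fin n → F)) :=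
  fun _ _ h => le_antisymm (toSub_le_iff.1 h.le) (toSub_le_iff.1 h.ge)

theorem finrank_toSub {x : GL (Fin n) F} (q : Submodule F[X] (PolyModule x)) :
    Module.finrank F (toSub q) = fdim (F := F) q :=
  ((Module.AEval'.of (endo x)).symm.submoduleMap (q.restrictScalars F)).finrank_eq.symm

theorem toSub_invariant {x : GL (Fin n) F} (q : Submodule F[X] (PolyModule x)) :
    glMap x (toSub q) ≤ toSub q := by
  rintro _ ⟨v, hv, rfl⟩
  rw [mem_toSub]
  have := q.smul_mem (X : F[X]) (mem_toSub.1 hv)
  rw [Module.AEval'.X_smul_of] at this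
  rwa [show endo x v = (x : Matrix (Fin n) (Fin n) F).mulVecLin v from rfl] at this

/-- The submodule over the polynomial ring on an invariant subspace. -/
noncomputable def ofSub (x : GL (Fin n) F) (W : Submodule F (Fin n → F)) (hW : glMap x W ≤ W) :
    Submodule F[X] (PolyModule x) :=
  Module.AEval.mapSubmodule F (Fin n → F) (endo x)
    ⟨W, (Module.End.mem_invtSubmodule _).2 fun v hv => hW ⟨v, hv, rfl⟩⟩

theorem toSub_ofSub (x : GL (Fin n) F) (W : Submodule F (Fin n → F)) (hW : glMap x W ≤ W) :
    toSub (ofSub x W hW) = W := by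
  ext v
  rw [mem_toSub, ofSub, Module.AEval.mem_mapSubmodule_apply]
  simp

variable [Fintype F]

/-- Fixed cosets of a parabolic subgroup are chains of invariant subspaces of the given dimensions. -/
theorem card_fixed_eq_chains {μ : Fin n → ℕ} (hμ : ∑ i, μ i = n) (x : GL (Fin n) F)
    [Fintype (Submodule F[X] (PolyModule x))] [DecidableEq (Submodule F[X] (PolyModule x))]
    (D : Finset ℕ) (hn : n ≠ 0) (hD : insert n D = (Finset.univ.image (prefixSum μ)).erase 0) (hnD : n ∉ D) :
    Nat.card (MulAction.fixedBy (GL (Fin n) F ⧸ Cfsg.parabolicGL n F μ) x) =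
      ((chains (⊤ : Submodule F[X] (PolyModule x))).filter fun C => C.image (fdim (F := F)) = D).card := by
  classical
  have hrange : ∀ d ∈ insert n D, ∃ j : Fin n, prefixSum μ j = d := fun d hd => by
    rw [hD] at hd
    obtain ⟨j, -, rfl⟩ := Finset.mem_image.1 (Finset.mem_of_mem_erase hd)
    exact ⟨j, rfl⟩
  have hcases : ∀ j : Fin n, prefixSum μ j = 0 ∨ prefixSum μ j = n ∨ prefixSum μ j ∈ D := by
    intro j
    by_cases h : prefixSum μ j = 0
    · exact Or.inl h
    · have : prefixSum μ j ∈ insert n D := hD ▸ Finset.mem_erase.2 ⟨h, Finset.mem_image_of_mem _ (Finset.mem_univ _)⟩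
      exact Or.inr (Finset.mem_insert.1 this)
  have hle : ∀ j : Fin n, prefixSum μ j ≤ n := fun j =>
    (Finset.sum_le_sum_of_subset (Finset.filter_subset _ _)).trans hμ.le
  have hDmem : ∀ d ∈ D, 0 < d ∧ d < n ∧ ∃ j : Fin n, prefixSum μ j = d := by
    intro d hd
    have h1 : d ∈ insert n D := Finset.mem_insert_of_mem hd
    obtain ⟨j, hj⟩ := hrange d h1
    rw [hD] at h1
    exact ⟨Nat.pos_of_ne_zero (Finset.mem_erase.1 h1).1,
      lt_of_le_of_ne (hj ▸ hle j) (fun e => hnD (e ▸ hd)), j, hj⟩
  let P := Cfsg.parabolicGL n F μ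
  have hinv : ∀ (z : MulAction.fixedBy (GL (Fin n) F ⧸ P) x) (j : Fin n),
      glMap x (glMap z.1.out (low (prefixSum μ j))) ≤ glMap z.1.out (low (prefixSum μ j)) := fun z =>
    (fixed_iff hμ x z.1.out).1 (by rw [QuotientGroup.out_eq']; exact z.2)
  let sub : ∀ (z : MulAction.fixedBy (GL (Fin n) F ⧸ P) x), {d // d ∈ D} → Submodule F[X] (PolyModule x) :=
    fun z d => ofSub x (glMap z.1.out (low d.1)) (by
      obtain ⟨j, hj⟩ := (hDmem d.1 d.2).2.2
      rw [← hj]; exact hinv z j)
  have hsub : ∀ z d, toSub (sub z d) = glMap z.1.out (low d.1) := fun z d => toSub_ofSub _ _ _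
  have hdim : ∀ z d, fdim (F := F) (sub z d) = d.1 := fun z d => by
    rw [← finrank_toSub, hsub, finrank_glMap, finrank_low (hDmem d.1 d.2).2.1.le]
  let Φ : MulAction.fixedBy (GL (Fin n) F ⧸ P) x → Finset (Submodule F[X] (PolyModule x)) :=
    fun z => Finset.univ.image (sub z)
  have hfinV : fdim (F := F) (⊤ : Submodule F[X] (PolyModule x)) = n := by
    have : toSub (⊤ : Submodule F[X] (PolyModule x)) = ⊤ := by ext v; simp [mem_toSub]
    rw [← finrank_toSub, this, finrank_top, Module.finrank_fin_fun]
  have hbot : fdim (F := F) (⊥ : Submodule F[X] (PolyModule x)) = 0 := Module.finrank_zero_of_subsingleton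
  have hΦ : ∀ z, Φ z ∈ (chains (⊤ : Submodule F[X] (PolyModule x))).filter
      fun C => C.image (fdim (F := F)) = D := by
    intro z
    rw [Finset.mem_filter, mem_chains]
    refine ⟨⟨fun q hq => ?_, ?_⟩, ?_⟩
    · obtain ⟨d, -, rfl⟩ := Finset.mem_image.1 hq
      obtain ⟨h0, h1, -⟩ := hDmem d.1 d.2
      refine ⟨bot_lt_iff_ne_bot.2 fun e => ?_, lt_top_iff_ne_top.2 fun e => ?_⟩
      · have := hdim z d; rw [e, hbot] at this; omega
      · have := hdim z d; rw [e, hfinV] at this; omega
    · intro a ha b hb _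
      obtain ⟨d, -, rfl⟩ := Finset.mem_image.1 (Finset.mem_coe.1 ha)
      obtain ⟨d', -, rfl⟩ := Finset.mem_image.1 (Finset.mem_coe.1 hb)
      rcases le_total d.1 d'.1 with h | h
      · left; show sub z d ≤ sub z d'; rw [← toSub_le_iff, hsub, hsub]
        exact glMap_mono _ fun v hv => mem_low.2 fun a ha => mem_low.1 hv a (h.trans ha)
      · right; show sub z d' ≤ sub z d; rw [← toSub_le_iff, hsub, hsub]
        exact glMap_mono _ fun v hv => mem_low.2 fun a ha => mem_low.1 hv a (h.trans ha)
    · ext d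
      simp only [Φ, Finset.mem_image, Finset.mem_univ, true_and]
      exact ⟨fun ⟨_, ⟨e, rfl⟩, hd⟩ => by rw [hdim] at hd; exact hd ▸ e.2,
        fun hd => ⟨_, ⟨⟨d, hd⟩, rfl⟩, hdim z _⟩⟩
  rw [← Nat.card_eq_finsetCard]
  refine Nat.card_congr (Equiv.ofBijective (fun z => ⟨Φ z, hΦ z⟩) ⟨?_, ?_⟩)
  · intro z w e
    have e' : Φ z = Φ w := congrArg Subtype.val e
    have hd : ∀ d : {d // d ∈ D}, sub z d = sub w d := fun d => by
      have : sub z d ∈ Φ w := e' ▸ Finset.mem_image_of_mem _ (Finset.mem_univ d)
      obtain ⟨d', -, hd'⟩ := Finset.mem_image.1 this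
      have h1 := congrArg (fdim (F := F)) hd'
      rw [hdim, hdim] at h1
      rw [← hd', Subtype.ext h1]
    have hall : ∀ j : Fin n, glMap z.1.out (low (F := F) (prefixSum μ j)) = glMap w.1.out (low (prefixSum μ j)) := by
      intro j
      rcases hcases j with h | h | h
      · have : low (F := F) (n := n) 0 = ⊥ := Submodule.finrank_eq_zero.1 (finrank_low (Nat.zero_le n))
        rw [h, this, glMap, glMap, Submodule.map_bot, Submodule.map_bot]
      · rw [h]
        have htop : ∀ g : GL (Fin n) F, glMap g (low (F := F) (n := n) n) = ⊤ := fun g =>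
          Submodule.eq_top_of_finrank_eq (by rw [finrank_glMap, finrank_low le_rfl, Module.finrank_fin_fun])
        rw [htop, htop]
      · have := hsub z ⟨_, h⟩
        rw [hd, hsub] at this
        exact this.symm
    refine Subtype.ext ?_
    rw [← QuotientGroup.out_eq' z.1, ← QuotientGroup.out_eq' w.1, QuotientGroup.eq, mem_parabolic_iff_low hμ]
    intro j
    rw [glMap_mul, ← hall j, ← glMap_mul, inv_mul_cancel, glMap_one]
  · rintro ⟨C, hC⟩
    rw [Finset.mem_filter, mem_chains] at hC
    obtain ⟨⟨-, hchain⟩, hCD⟩ := hC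
    obtain ⟨v, hv, hvC⟩ := exists_adapted C.card (C.image toSub) (⊤ : Submodule F (Fin n → F))
      (Finset.card_image_le) (fun _ _ => le_top) (by
        rw [Finset.coe_image]
        rintro _ ⟨a, ha, rfl⟩ _ ⟨b, hb, rfl⟩ hne
        exact (hchain ha hb fun e => hne (e ▸ rfl)).imp toSub_le_iff.2 toSub_le_iff.2)
    let A : Matrix (Fin n) (Fin n) F := Matrix.of fun a i => v i.val a
    have hcol : ∀ d ≤ n, Submodule.span F ((fun i : Fin n => A.col i) '' {i | i.val < d}) =
        Submodule.span F (v '' Set.Iio d) := by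
      intro d hd
      congr 1
      ext w
      constructor
      · rintro ⟨i, hi, rfl⟩; exact ⟨i.val, hi, rfl⟩
      · rintro ⟨i, hi, rfl⟩; exact ⟨⟨i, lt_of_lt_of_le hi hd⟩, hi, rfl⟩
    rw [finrank_top, Module.finrank_fin_fun] at hv
    have hsurj : Function.Surjective A.mulVecLin := by
      rw [← LinearMap.range_eq_top, Matrix.range_mulVecLin]
      refine le_antisymm le_top ?_
      rw [← hv, ← hcol n le_rfl]
      exact Submodule.span_mono (Set.image_subset_range _ _)
    have hunit : IsUnit A := Matrix.mulVec_surjective_iff_isUnit.1 hsurj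
    let g : GL (Fin n) F := hunit.unit
    have hg : ∀ q ∈ C, glMap g (low (fdim (F := F) q)) = toSub q := by
      intro q hq
      have hd : fdim (F := F) q ≤ n := by
        have := Submodule.finrank_le (toSub q)
        rw [finrank_toSub, Module.finrank_fin_fun] at this
        exact this
      rw [glMap_low, show (g : Matrix (Fin n) (Fin n) F) = A from rfl, hcol _ hd, ← finrank_toSub]
      exact hvC _ (Finset.mem_image_of_mem _ hq)
    have hfix : x • (QuotientGroup.mk g : GL (Fin n) F ⧸ P) = QuotientGroup.mk g := by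
      refine (fixed_iff hμ x g).2 fun j => ?_
      rcases hcases j with h | h | h
      · have : low (F := F) (n := n) 0 = ⊥ := Submodule.finrank_eq_zero.1 (finrank_low (Nat.zero_le n))
        rw [h, this, glMap, glMap, Submodule.map_bot, Submodule.map_bot]
      · rw [h, glMap_low g, show (g : Matrix (Fin n) (Fin n) F) = A from rfl, hcol n le_rfl, hv]
        exact le_top
      · rw [← hCD] at h
        obtain ⟨q, hq, hqd⟩ := Finset.mem_image.1 h
        rw [← hqd, hg q hq]
        exact toSub_invariant q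
    let z : MulAction.fixedBy (GL (Fin n) F ⧸ P) x := ⟨QuotientGroup.mk g, hfix⟩
    obtain ⟨p, hp⟩ := QuotientGroup.mk_out_eq_mul P g
    have hout : ∀ d : {d // d ∈ D}, glMap z.1.out (low (F := F) (n := n) d.1) = glMap g (low d.1) := by
      intro d
      obtain ⟨j, hj⟩ := (hDmem d.1 d.2).2.2
      rw [hp, glMap_mul, ← hj]
      congr 1
      exact Submodule.eq_of_le_of_finrank_eq ((mem_parabolic_iff_low hμ _).1 p.2 j) (finrank_glMap _ _)
    have hq : ∀ q ∈ C, ∀ hd : fdim (F := F) q ∈ D, sub z ⟨_, hd⟩ = q := fun q hq hd => by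
      apply toSub_injective
      rw [hsub, hout, hg q hq]
    refine ⟨z, Subtype.ext ?_⟩
    ext q
    simp only [Φ, Finset.mem_image, Finset.mem_univ, true_and]
    constructor
    · rintro ⟨⟨d, hd⟩, rfl⟩
      have hd' := hd
      rw [← hCD] at hd'
      obtain ⟨r, hr, rfl⟩ := Finset.mem_image.1 hd'
      rw [hq r hr hd]
      exact hr
    · intro hqC
      exact ⟨⟨_, hCD ▸ Finset.mem_image_of_mem _ hqC⟩, hq q hqC _⟩

end Cfsg.Agent.H42.StValues
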