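/-
The signed sum over permutations with `κ i ≤ i + 1` as an alternating sum over break sets.
-/
import Cfsg.Agent.H70.CompLabel

set_option autoImplicit false

open Finset Cfsg.Agent.H70

namespace Cfsg.Agent.H42.StValues

variable {n : ℕ}

/-- The parts attached to a permutation with `κ i ≤ i + 1`. -/
def parts (κ : Equiv.Perm (Fin n)) (i : Fin n) : ℕ := 1 + i.val - (κ i).val

/-- The non-zero break points. -/
def breaks (κ : Equiv.Perm (Fin n)) : Finset ℕ := (univ.image (prefixSum (parts κ))).erase 0

/-- The condition `κ i ≤ i + 1`. -/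
def Hess (κ : Equiv.Perm (Fin n)) : Prop := ∀ i : Fin n, (κ i).val ≤ 1 + i.val

instance (κ : Equiv.Perm (Fin n)) : Decidable (Hess κ) := inferInstanceAs (Decidable (∀ _, _))

theorem prefixSum_eq_ite (μ : Fin n → ℕ) (j : Fin n) : prefixSum μ j = ∑ k, if k ≤ j then μ k else 0 :=
  Finset.sum_filter _ _

theorem prefixSum_zero (μ : Fin (n + 1) → ℕ) : prefixSum μ 0 = μ 0 := by
  simp [prefixSum_eq_ite, Fin.sum_univ_succ]

theorem prefixSum_succ (μ : Fin (n + 1) → ℕ) (j : Fin n) :
    prefixSum μ j.succ = μ 0 + prefixSum (fun i => μ i.succ) j := by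
  rw [prefixSum_eq_ite, prefixSum_eq_ite, Fin.sum_univ_succ, if_pos (Fin.zero_le _)]
  simp [Fin.succ_le_succ_iff]

theorem prefixSum_ind (e : Equiv.Perm (Fin n)) (h : Hess e) (j : Fin n) :
    prefixSum (fun i => if (e i).val = 0 then 1 else 0) j = if prefixSum (parts e) j = 0 then 0 else 1 := by
  have hle : prefixSum (fun i => if (e i).val = 0 then 1 else 0) j ≤ 1 := by
    rw [prefixSum, Finset.sum_boole, Nat.cast_id]
    exact Finset.card_le_one.2 fun a ha b hb => e.injective (Fin.ext
      ((Finset.mem_filter.1 ha).2.trans (Finset.mem_filter.1 hb).2.symm))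
  by_cases hP : prefixSum (parts e) j = 0
  · rw [if_pos hP]
    rw [prefixSum, Finset.sum_eq_zero_iff] at hP ⊢
    intro i hi
    have := hP i hi
    have := h i
    rw [if_neg]
    simp only [parts] at *
    omega
  · rw [if_neg hP]
    refine le_antisymm hle ?_
    by_contra hc
    apply hP
    have h0 : ∀ i ≤ j, (e i).val ≠ 0 := by
      intro i hi e0
      apply hc
      rw [prefixSum]
      exact le_trans (by simp [e0]) (Finset.single_le_sum (f := fun i => if (e i).val = 0 then 1 else 0)
        (fun _ _ => Nat.zero_le _) (Finset.mem_filter.2 ⟨mem_univ _, hi⟩))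
    have hval : ∀ i ≤ j, (e i).val = i.val + 1 := by
      intro i
      induction hv : i.val using Nat.strong_induction_on generalizing i with
      | _ v ih =>
        intro hi
        subst hv
        by_contra hne
        have h1 := h i
        have h2 := h0 i hi
        have hlt : (⟨(e i).val - 1, by omega⟩ : Fin n) < i := by
          rw [Fin.lt_def]; show (e i).val - 1 < i.val; omega
        have h3 := ih _ (Fin.lt_def.1 hlt) ⟨(e i).val - 1, by omega⟩ rfl (hlt.le.trans hi)
        simp only at h3
        have : (⟨(e i).val - 1, by omega⟩ : Fin n) = i := e.injective (Fin.ext (by omega))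
        exact absurd this hlt.ne
    rw [prefixSum, Finset.sum_eq_zero_iff]
    intro i hi
    simp [parts, hval i (Finset.mem_filter.1 hi).2, add_comm]

theorem breaks_symm_zero (e : Equiv.Perm (Fin n)) :
    breaks (Equiv.Perm.decomposeFin.symm ((0 : Fin (n + 1)), e)) = insert 1 ((breaks e).image Nat.succ) := by
  set κ := Equiv.Perm.decomposeFin.symm ((0 : Fin (n + 1)), e)
  have h0 : parts κ 0 = 1 := by simp [parts, κ]
  have hs : (fun i : Fin n => parts κ i.succ) = parts e := by
    funext i; simp [parts, κ]; omega
  have hP : ∀ j : Fin n, prefixSum (parts κ) j.succ = 1 + prefixSum (parts e) j := fun j => by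
    rw [prefixSum_succ, h0, hs]
  ext x
  simp only [breaks, mem_erase, mem_image, mem_univ, true_and, mem_insert]
  constructor
  · rintro ⟨hx, j, rfl⟩
    induction j using Fin.cases with
    | zero => left; rw [prefixSum_zero, h0]
    | succ j =>
      rw [hP]
      by_cases h : prefixSum (parts e) j = 0
      · left; omega
      · right; exact ⟨_, ⟨h, j, rfl⟩, by omega⟩
  · rintro (rfl | ⟨_, ⟨hy, j, rfl⟩, rfl⟩)
    · exact ⟨one_ne_zero, 0, by rw [prefixSum_zero, h0]⟩
    · exact ⟨Nat.succ_ne_zero _, j.succ, by rw [hP]; omega⟩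

theorem hess_symm_zero (e : Equiv.Perm (Fin n)) :
    Hess (Equiv.Perm.decomposeFin.symm ((0 : Fin (n + 1)), e)) ↔ Hess e := by
  refine ⟨fun h i => ?_, fun h i => ?_⟩
  · have := h i.succ; simp at this; omega
  · induction i using Fin.cases with
    | zero => simp
    | succ i => have := h i; simp; omega

theorem val_symm_one (e : Equiv.Perm (Fin (n + 1))) (i : Fin (n + 1)) :
    ((Equiv.Perm.decomposeFin.symm ((1 : Fin (n + 2)), e)) i.succ).val =
      if (e i).val = 0 then 0 else (e i).val + 1 := by
  rw [Equiv.Perm.decomposeFin_symm_apply_succ]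
  by_cases h : (e i).val = 0
  · rw [if_pos h, show (e i).succ = (1 : Fin (n + 2)) from Fin.ext (by simp [h]), Equiv.swap_apply_right]
    rfl
  · rw [if_neg h, Equiv.swap_apply_of_ne_of_ne (Fin.succ_ne_zero _) (fun h' => h (by
      have := congrArg Fin.val h'; simp at this; simp [this]))]
    simp

theorem hess_symm_one (e : Equiv.Perm (Fin (n + 1))) :
    Hess (Equiv.Perm.decomposeFin.symm ((1 : Fin (n + 2)), e)) ↔ Hess e := by
  refine ⟨fun h i => ?_, fun h i => ?_⟩
  · have := h i.succ; rw [val_symm_one, Fin.val_succ] at this; split_ifs at this <;> omega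
  · induction i using Fin.cases with
    | zero => simp
    | succ i => have := h i; rw [val_symm_one, Fin.val_succ]; split_ifs <;> omega

theorem breaks_symm_one (e : Equiv.Perm (Fin (n + 1))) (he : Hess e) :
    breaks (Equiv.Perm.decomposeFin.symm ((1 : Fin (n + 2)), e)) = (breaks e).image Nat.succ := by
  set κ := Equiv.Perm.decomposeFin.symm ((1 : Fin (n + 2)), e)
  have h0 : parts κ 0 = 0 := by simp [parts, κ]
  have hs : ∀ i : Fin (n + 1), parts κ i.succ = parts e i + if (e i).val = 0 then 1 else 0 := by
    intro i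
    have := he i
    simp only [parts, κ, val_symm_one, Fin.val_succ]
    split_ifs <;> omega
  have hP : ∀ j : Fin (n + 1), prefixSum (parts κ) j.succ =
      if prefixSum (parts e) j = 0 then 0 else prefixSum (parts e) j + 1 := by
    intro j
    rw [prefixSum_succ, h0, zero_add]
    simp only [hs]
    rw [prefixSum, Finset.sum_add_distrib]
    change prefixSum (parts e) j + prefixSum (fun i => if (e i).val = 0 then 1 else 0) j = _
    rw [prefixSum_ind e he]
    split_ifs with h <;> omega
  ext x
  simp only [breaks, mem_erase, mem_image, mem_univ, true_and]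
  constructor
  · rintro ⟨hx, j, rfl⟩
    induction j using Fin.cases with
    | zero => rw [prefixSum_zero, h0] at hx; exact absurd rfl hx
    | succ j =>
      rw [hP] at hx ⊢
      split_ifs at hx ⊢ with h
      · exact absurd rfl hx
      · exact ⟨_, ⟨h, j, rfl⟩, rfl⟩
  · rintro ⟨_, ⟨hy, j, rfl⟩, rfl⟩
    exact ⟨Nat.succ_ne_zero _, j.succ, by rw [hP, if_neg hy]⟩

/-- The signed sum over these permutations. -/
theorem signed_sum_eq : ∀ (n : ℕ) (Φ : Finset ℕ → ℂ),
    ∑ κ : Equiv.Perm (Fin (n + 1)), (if Hess κ then ((Equiv.Perm.sign κ : ℤ) : ℂ) * Φ (breaks κ) else 0) =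
      ∑ D ∈ (Finset.Ioo 0 (n + 1)).powerset, (-1) ^ (n + D.card) * Φ (insert (n + 1) D)
  | 0, Φ => by
    have h1 : breaks (1 : Equiv.Perm (Fin 1)) = {1} := by decide
    have h2 : Hess (1 : Equiv.Perm (Fin 1)) := by decide
    rw [show (Finset.univ : Finset (Equiv.Perm (Fin (0 + 1)))) = {1} by decide, Finset.sum_singleton, if_pos h2,
      show Finset.Ioo 0 (0 + 1) = (∅ : Finset ℕ) from rfl]
    simp [h1]
  | n + 1, Φ => by
    rw [← Equiv.Perm.decomposeFin.symm.sum_comp, Fintype.sum_prod_type, Fin.sum_univ_succ, Fin.sum_univ_succ]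
    rw [Finset.sum_eq_zero (f := fun p : Fin n => _) fun p _ => ?_, add_zero]
    · have ht : ∀ Ψ : Finset ℕ → ℂ,
          ∑ e : Equiv.Perm (Fin (n + 1)), (if Hess e then ((Equiv.Perm.sign e : ℤ) : ℂ) * Ψ (breaks e) else 0) =
            ∑ D ∈ (Finset.Ioo 0 (n + 1)).powerset, (-1) ^ (n + D.card) * Ψ (insert (n + 1) D) :=
        signed_sum_eq n
      have e0 := ht fun E => Φ (insert 1 (E.image Nat.succ))
      have e1 := ht fun E => -Φ (E.image Nat.succ)
      have hIoo : Finset.Ioo 0 (n + 1 + 1) = insert 1 ((Finset.Ioo 0 (n + 1)).image Nat.succ) := by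
        ext x
        simp only [mem_Ioo, mem_insert, mem_image]
        refine ⟨fun h => ?_, ?_⟩
        · rcases Nat.lt_or_ge x 2 with h2 | h2
          · exact Or.inl (by omega)
          · exact Or.inr ⟨x - 1, by omega, by omega⟩
        · rintro (rfl | ⟨y, hy, rfl⟩) <;> omega
      have h1not : 1 ∉ (Finset.Ioo 0 (n + 1)).image Nat.succ := by
        simp only [mem_image, mem_Ioo]; rintro ⟨y, hy, e⟩; omega
      rw [hIoo, Finset.sum_powerset_insert h1not, Finset.powerset_image,
        Finset.sum_image (fun a _ b _ h => Finset.image_injective Nat.succ_injective h),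
        Finset.sum_image (fun a _ b _ h => Finset.image_injective Nat.succ_injective h), add_comm]
      refine congrArg₂ (· + ·) ?_ ?_
      · rw [show Fin.succ (0 : Fin (n + 1)) = (1 : Fin (n + 2)) from rfl]
        refine Eq.trans (Finset.sum_congr rfl fun e _ => ?_) (e1.trans (Finset.sum_congr rfl fun D hD => ?_))
        · by_cases he : Hess e
          · rw [if_pos ((hess_symm_one e).2 he), if_pos he, breaks_symm_one e he,
              Equiv.Perm.decomposeFin.symm_sign, if_neg (by simp)]
            push_cast
            ring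
          · rw [if_neg (fun h => he ((hess_symm_one e).1 h)), if_neg he]
        · rw [Finset.card_image_of_injective _ Nat.succ_injective, Finset.image_insert]
          ring
      · refine Eq.trans (Finset.sum_congr rfl fun e _ => ?_) (e0.trans (Finset.sum_congr rfl fun D hD => ?_))
        · simp only [hess_symm_zero, breaks_symm_zero, Equiv.Perm.decomposeFin.symm_sign, if_true, one_mul]
        · have h1 : 1 ∉ D.image Nat.succ := fun h => h1not
            (Finset.image_subset_image (Finset.mem_powerset.1 hD) h)
          rw [Finset.card_insert_of_notMem h1, Finset.card_image_of_injective _ Nat.succ_injective,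
            Finset.image_insert, Finset.insert_comm]
          ring
    · refine Finset.sum_eq_zero fun e _ => if_neg fun h => ?_
      have := h 0
      simp at this

end Cfsg.Agent.H42.StValues
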